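import Mathlib
import Cfsg.Prelude.Def_OddOrderLocal

/-!
# Burnside-transfer facts for BG Lemma 9.5 (S1402)

* `sylow_inf_commutator_normalizer_ne_bot`: in a nonabelian simple group a nontrivial Sylow
  `p`-subgroup `P` meets the derived subgroup of its normalizer: `P ⊓ ⁅N(P), N(P)⁆ ≠ ⊥`.
* `scn_inf_commutator_normalizer_ne_bot`: the same for `A ∈ SCN(P)`, `A ≠ ⊥`:
  `A ⊓ ⁅N(A), N(A)⁆ ≠ ⊥`.
* `commute_of_inf_commutator_normalizer_eq_bot`: if `A ⊓ ⁅N(A), N(A)⁆ = ⊥` then `N(A) ≤ C(A)`.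
-/

set_option autoImplicit false

namespace Cfsg.Agent.Lib.Helper2.BG95

open Cfsg

variable {G : Type*} [Group G]

/-- If `A` meets the derived subgroup of its normalizer trivially, then its normalizer centralizes
it. -/
theorem normalizer_le_centralizer_of_inf_commutator_eq_bot (A : Subgroup G)
    (h : A ⊓ ⁅Subgroup.normalizer (A : Set G), Subgroup.normalizer (A : Set G)⁆ = ⊥) :
    Subgroup.normalizer (A : Set G) ≤ Subgroup.centralizer (A : Set G) := by
  intro n hn
  rw [Subgroup.mem_centralizer_iff]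
  intro x hx
  have hxN : x ∈ Subgroup.normalizer (A : Set G) := Subgroup.le_normalizer hx
  have h1 : x * n * x⁻¹ * n⁻¹ ∈
      ⁅Subgroup.normalizer (A : Set G), Subgroup.normalizer (A : Set G)⁆ :=
    Subgroup.commutator_mem_commutator hxN hn
  have h2 : x * n * x⁻¹ * n⁻¹ ∈ A := by
    have h3 : n * x⁻¹ * n⁻¹ ∈ A := (Subgroup.mem_normalizer_iff.mp hn x⁻¹).mp (A.inv_mem hx)
    have h4 : x * n * x⁻¹ * n⁻¹ = x * (n * x⁻¹ * n⁻¹) := by group
    rw [h4]
    exact A.mul_mem hx h3
  have h5 : x * n * x⁻¹ * n⁻¹ ∈ (⊥ : Subgroup G) := by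
    rw [← h]; exact Subgroup.mem_inf.mpr ⟨h2, h1⟩
  have h6 : x * n * x⁻¹ * n⁻¹ = 1 := Subgroup.mem_bot.mp h5
  have h7 : x * n = n * x := by
    have := congrArg (fun t => t * n * x) h6
    simpa [mul_assoc] using this
  exact h7

variable [Finite G]

/-- Burnside: in a nonabelian simple group, a nontrivial Sylow `p`-subgroup meets the derived
subgroup of its normalizer nontrivially. -/
theorem sylow_inf_commutator_normalizer_ne_bot (hs : IsSimpleGroup G) (hnc : ¬ IsMulCommutative G)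
    {p : ℕ} [Fact p.Prime] (P : Sylow p G) (hP : (P : Subgroup G) ≠ ⊥) :
    (P : Subgroup G) ⊓ ⁅Subgroup.normalizer ((P : Subgroup G) : Set G),
      Subgroup.normalizer ((P : Subgroup G) : Set G)⁆ ≠ ⊥ := by
  intro hbot
  have hNC : Subgroup.normalizer ((P : Subgroup G) : Set G) ≤
      Subgroup.centralizer ((P : Subgroup G) : Set G) :=
    normalizer_le_centralizer_of_inf_commutator_eq_bot _ hbot
  have hcompl := MonoidHom.ker_transferSylow_isComplement' P hNC
  have hcard := hcompl.card_mul_card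
  rcases hs.eq_bot_or_eq_top_of_normal (MonoidHom.transferSylow P hNC).ker inferInstance with hk | hk
  · -- kernel trivial: `P = ⊤`, so `G` is abelian
    rw [hk, Subgroup.card_bot, one_mul] at hcard
    have hPtop : (P : Subgroup G) = ⊤ := Subgroup.eq_top_of_card_eq _ hcard
    apply hnc
    refine ⟨⟨fun a b => ?_⟩⟩
    have ha : a ∈ (P : Subgroup G) := by rw [hPtop]; exact Subgroup.mem_top a
    have hb : b ∈ (P : Subgroup G) := by rw [hPtop]; exact Subgroup.mem_top b
    have := hNC (Subgroup.le_normalizer hb)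
    rw [Subgroup.mem_centralizer_iff] at this
    exact this a ha
  · -- kernel everything: `P = ⊥`
    rw [hk, Subgroup.card_top] at hcard
    have h1 : Nat.card (P : Subgroup G) = 1 := by
      have hpos : 0 < Nat.card G := Nat.card_pos
      exact Nat.eq_of_mul_eq_mul_left hpos (by rw [hcard, mul_one])
    exact hP (Subgroup.card_eq_one.mp h1)

/-- For `A ∈ SCN(P)`, `A ≠ ⊥`, in a nonabelian simple group: `A ⊓ ⁅N(A), N(A)⁆ ≠ ⊥`. -/
theorem scn_inf_commutator_normalizer_ne_bot (hs : IsSimpleGroup G) (hnc : ¬ IsMulCommutative G)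
    {p : ℕ} [Fact p.Prime] (P : Sylow p G) (A : Subgroup G) (hA : Cfsg.IsSCN (P : Subgroup G) A)
    (hA1 : A ≠ ⊥) :
    A ⊓ ⁅Subgroup.normalizer (A : Set G), Subgroup.normalizer (A : Set G)⁆ ≠ ⊥ := by
  intro hbot
  have hNC : Subgroup.normalizer (A : Set G) ≤ Subgroup.centralizer (A : Set G) :=
    normalizer_le_centralizer_of_inf_commutator_eq_bot _ hbot
  -- `P ≤ N(A) ≤ C(A)`, so `P = P ⊓ C(A) = A`
  have hPA : (P : Subgroup G) = A := by
    have h1 : (P : Subgroup G) ≤ Subgroup.centralizer (A : Set G) := hA.2.1.trans hNC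
    have h2 : (P : Subgroup G) ⊓ Subgroup.centralizer (A : Set G) = (P : Subgroup G) :=
      inf_eq_left.mpr h1
    rw [← h2]; exact hA.2.2
  have hP1 : (P : Subgroup G) ≠ ⊥ := by rw [hPA]; exact hA1
  apply sylow_inf_commutator_normalizer_ne_bot hs hnc P hP1
  rw [hPA]; exact hbot

/-- Version for minimal simple groups of odd order. -/
theorem scn_inf_commutator_normalizer_ne_bot' (hG : Cfsg.IsMinSimpleOddOrder G)
    {p : ℕ} [Fact p.Prime] (P : Sylow p G) (A : Subgroup G) (hA : Cfsg.IsSCN (P : Subgroup G) A)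
    (hA1 : A ≠ ⊥) :
    A ⊓ ⁅Subgroup.normalizer (A : Set G), Subgroup.normalizer (A : Set G)⁆ ≠ ⊥ :=
  scn_inf_commutator_normalizer_ne_bot hG.2.1 hG.2.2.1 P A hA hA1

/-- Version for minimal simple groups of odd order (Sylow form). -/
theorem sylow_inf_commutator_normalizer_ne_bot' (hG : Cfsg.IsMinSimpleOddOrder G)
    {p : ℕ} [Fact p.Prime] (P : Sylow p G) (hP : (P : Subgroup G) ≠ ⊥) :
    (P : Subgroup G) ⊓ ⁅Subgroup.normalizer ((P : Subgroup G) : Set G),
      Subgroup.normalizer ((P : Subgroup G) : Set G)⁆ ≠ ⊥ :=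
  sylow_inf_commutator_normalizer_ne_bot hG.2.1 hG.2.2.1 P hP

end Cfsg.Agent.Lib.Helper2.BG95
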