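import Mathlib
import Cfsg.Prelude.Def_OddOrderLocal
import Cfsg.Statements.S1350
import Cfsg.Statements.S1375
import Cfsg.Statements.S1377
import Cfsg.Statements.S1378
import Cfsg.Statements.S1429
import Cfsg.Statements.S1430
import Cfsg.Statements.S1431
import Cfsg.Statements.S1432
import Cfsg.Statements.S1433

/-!
# Bender–Glauberman Theorem 14.7 (existence of `M*`, and "not both of type P1"): package statements

Team project led by helper2 (for S1366, S1369, S1351).  Each `Lem…` below is the exact statement of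
one package; a package is a theorem `… : Cfsg.Agent.Lib.Helper2.BG47.Lem….{u}` in the taker's own
Lib file.

Notation: `kstar L K = C_{L_σ}(K)`; `IsP1 L`: every prime divisor of `|L|` lies in `σ(L) ∪ κ(L)`;
`Good Z L KL`: `L` is a coatom, `KL` a nontrivial Hall `κ(L)`-subgroup of `L` and
`KL · C_{L_σ}(KL) = Z`.
-/

set_option autoImplicit false

namespace Cfsg.Agent.Lib.Helper2.BG47

open Cfsg

universe u

/-- `K* = C_{L_σ}(K)`. -/
abbrev kstar {G : Type u} [Group G] (L K : Subgroup G) : Subgroup G :=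
  Cfsg.sigmaCore L ⊓ Subgroup.centralizer (K : Set G)

/-- Every prime divisor of `|L|` lies in `σ(L) ∪ κ(L)` ("type P1 or F-less"). -/
def IsP1 {G : Type u} [Group G] (L : Subgroup G) : Prop :=
  ∀ q : ℕ, q.Prime → q ∣ Nat.card L → q ∉ Cfsg.sigma L → q ∈ Cfsg.kappa L

/-- `L` is a coatom with a nontrivial Hall `κ(L)`-subgroup `KL` such that `KL · C_{L_σ}(KL) = Z`. -/
def Good {G : Type u} [Group G] (Z L KL : Subgroup G) : Prop :=
  IsCoatom L ∧ Cfsg.IsPiHallOf (Cfsg.kappa L) KL L ∧ KL ≠ ⊥ ∧ KL ⊔ kstar L KL = Z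

/-- Package COUNT (pure counting).  `S` a family of at least two subgroups `C ≤ Z`, each with a set
`T C` of size `(s C - 1)|G| / l C`, where `l C * |C| = s C * |Z|` and `3|C| ≤ s C`; the elements of
`Z` outside all `C ∈ S` are only fused by `Z`, their conjugates avoid every `T C`, and the `T C` are
pairwise disjoint.  Then the sets are too big for `G`. -/
def LemCount : Prop :=
  ∀ {G : Type u} [Group G] [Finite G] (Z : Subgroup G) (S : Finset (Subgroup G))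
    (T : Subgroup G → Set G) (s l : Subgroup G → ℕ),
    2 ≤ S.card →
    (∀ C ∈ S, C ≤ Z) →
    (∀ C ∈ S, (T C).ncard * l C = (s C - 1) * Nat.card G) →
    (∀ C ∈ S, l C * Nat.card C = s C * Nat.card Z) →
    (∀ C ∈ S, 3 * Nat.card C ≤ s C) →
    (∀ z ∈ Z, (∀ C ∈ S, z ∉ C) → ∀ h : G, h * z * h⁻¹ ∈ Z → (∀ C ∈ S, h * z * h⁻¹ ∉ C) → h ∈ Z) →
    (∀ C ∈ S, ∀ z ∈ Z, (∀ C' ∈ S, z ∉ C') → ∀ g : G, g * z * g⁻¹ ∉ T C) →
    (∀ C ∈ S, ∀ C' ∈ S, C ≠ C' → Disjoint (T C) (T C')) →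
    False

/-- Package SUPP (pure): `R(x)` is equivariant under conjugation. -/
def LemSupp : Prop :=
  ∀ {G : Type u} [Group G] [Finite G] (L : Subgroup G) (g a : G),
    Cfsg.supportR (L.map (MulAut.conj g).toMonoidHom) (g * a * g⁻¹) =
      (Cfsg.supportR L a).map (MulAut.conj g).toMonoidHom

/-- Package TILDE: the tilde-sets of two non-conjugate coatoms are disjoint (from S1433, S1378 and
the equivariance of `supportR`). -/
def LemTildeDisj : Prop :=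
  LemSupp.{u} →
  ∀ {G : Type u} [Group G] [Finite G] (hG : Cfsg.IsMinSimpleOddOrder G)
    (_h1378 : type_of% (@Cfsg.CfsgFrozen.S1378 G _ _ hG))
    (_h1433 : type_of% (@Cfsg.CfsgFrozen.S1433 G _ _ hG))
    (L L' : Subgroup G), IsCoatom L → IsCoatom L' →
    (∀ g : G, L' ≠ L.map (MulAut.conj g).toMonoidHom) →
    Disjoint (Cfsg.tildeOf L ((Cfsg.sigmaCore L : Set G) \ {1}))
      (Cfsg.tildeOf L' ((Cfsg.sigmaCore L' : Set G) \ {1}))

/-- Package KSTAR: `C_{L_σ}(K) ≠ 1` for a nontrivial Hall `κ(L)`-subgroup `K` (no cyclicity). -/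
def LemKstar : Prop :=
  ∀ {G : Type u} [Group G] [Finite G] (hG : Cfsg.IsMinSimpleOddOrder G)
    (_h1430 : type_of% (@Cfsg.CfsgFrozen.S1430 G _ _ hG))
    (L : Subgroup G), IsCoatom L → ∀ K : Subgroup G, Cfsg.IsPiHallOf (Cfsg.kappa L) K L → K ≠ ⊥ →
    kstar L K ≠ ⊥

/-- Package T2 (B–G 14.2(g)): if `L` is not of type P1 then `|K|` is prime. -/
def LemT2 : Prop :=
  ∀ {G : Type u} [Group G] [Finite G] (hG : Cfsg.IsMinSimpleOddOrder G)
    (_h1429 : type_of% (@Cfsg.CfsgFrozen.S1429 G _ _ hG))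
    (_h1430 : type_of% (@Cfsg.CfsgFrozen.S1430 G _ _ hG))
    (L : Subgroup G), IsCoatom L → ∀ K : Subgroup G, Cfsg.IsPiHallOf (Cfsg.kappa L) K L → K ≠ ⊥ →
    ¬ IsP1 L → (Nat.card K).Prime

/-- Package PAIR: for `X ≤ K` of prime order, every coatom `L` over `N_G(X)` is `Z`-good, with a
Hall `κ(L)`-subgroup `KL ≥ K*` and `X ≤ C_{L_σ}(KL) ≤ K`. -/
def LemPair : Prop :=
  ∀ {G : Type u} [Group G] [Finite G] (hG : Cfsg.IsMinSimpleOddOrder G)
    (_h1378 : type_of% (@Cfsg.CfsgFrozen.S1378 G _ _ hG))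
    (_h1430 : type_of% (@Cfsg.CfsgFrozen.S1430 G _ _ hG))
    (_h1431 : type_of% (@Cfsg.CfsgFrozen.S1431 G _ _ hG))
    (_h1432 : type_of% (@Cfsg.CfsgFrozen.S1432 G _ _ hG))
    (M : Subgroup G), IsCoatom M → ∀ K : Subgroup G, Cfsg.IsPiHallOf (Cfsg.kappa M) K M → K ≠ ⊥ →
    ∀ X : Subgroup G, X ≤ K → (Nat.card X).Prime →
    ∀ L : Subgroup G, IsCoatom L → Subgroup.normalizer (X : Set G) ≤ L →
    ∃ KL : Subgroup G, Good (K ⊔ kstar M K) L KL ∧ kstar M K ≤ KL ∧ X ≤ kstar L KL ∧ kstar L KL ≤ K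

/-- Package TI: the elements of `Z` outside `KL ∪ C_{L_σ}(KL)` are fused only by `Z`. -/
def LemTI : Prop :=
  ∀ {G : Type u} [Group G] [Finite G] (hG : Cfsg.IsMinSimpleOddOrder G)
    (_h1430 : type_of% (@Cfsg.CfsgFrozen.S1430 G _ _ hG))
    (_h1431 : type_of% (@Cfsg.CfsgFrozen.S1431 G _ _ hG))
    (Z L KL : Subgroup G), Good Z L KL →
    ∀ z ∈ Z, z ∉ KL → z ∉ kstar L KL → ∀ h : G, h * z * h⁻¹ ∈ Z → h ∈ Z

/-- Package DT: no conjugate of an element of `Z` outside `C_{L_σ}(KL)` lies in the tilde-set of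
`L`. -/
def LemDT : Prop :=
  ∀ {G : Type u} [Group G] [Finite G] (hG : Cfsg.IsMinSimpleOddOrder G)
    (_h1350 : type_of% (@Cfsg.CfsgFrozen.S1350 G _ _ hG))
    (_h1375 : type_of% (@Cfsg.CfsgFrozen.S1375 G _ _ hG))
    (_h1430 : type_of% (@Cfsg.CfsgFrozen.S1430 G _ _ hG))
    (_h1431 : type_of% (@Cfsg.CfsgFrozen.S1431 G _ _ hG))
    (Z L KL : Subgroup G), Good Z L KL →
    ∀ z ∈ Z, z ∉ kstar L KL →
      ∀ g : G, g * z * g⁻¹ ∉ Cfsg.tildeOf L ((Cfsg.sigmaCore L : Set G) \ {1})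

/-- Package UNIQ: uniqueness of the partner `M*`. -/
def LemUniq : Prop :=
  ∀ {G : Type u} [Group G] [Finite G] (hG : Cfsg.IsMinSimpleOddOrder G)
    (_h1350 : type_of% (@Cfsg.CfsgFrozen.S1350 G _ _ hG))
    (_h1430 : type_of% (@Cfsg.CfsgFrozen.S1430 G _ _ hG))
    (_h1431 : type_of% (@Cfsg.CfsgFrozen.S1431 G _ _ hG))
    (M : Subgroup G), IsCoatom M → ∀ K : Subgroup G, Cfsg.IsPiHallOf (Cfsg.kappa M) K M → K ≠ ⊥ →
    ∀ M₁ M₂ : Subgroup G, IsCoatom M₁ → IsCoatom M₂ →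
      K = Cfsg.sigmaCore M₁ ⊓ Subgroup.centralizer ((kstar M K : Subgroup G) : Set G) →
      Cfsg.IsPiHallOf (Cfsg.kappa M₁) (kstar M K) M₁ →
      K = Cfsg.sigmaCore M₂ ⊓ Subgroup.centralizer ((kstar M K : Subgroup G) : Set G) →
      Cfsg.IsPiHallOf (Cfsg.kappa M₂) (kstar M K) M₂ → M₁ = M₂

/-- The goal of the project (B–G 14.7, existence and (f)), for an arbitrary Hall `κ(M)`-subgroup. -/
def PartnerExists : Prop :=
  ∀ {G : Type u} [Group G] [Finite G] (hG : Cfsg.IsMinSimpleOddOrder G)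
    (_h1350 : type_of% (@Cfsg.CfsgFrozen.S1350 G _ _ hG))
    (_h1375 : type_of% (@Cfsg.CfsgFrozen.S1375 G _ _ hG))
    (_h1377 : type_of% (@Cfsg.CfsgFrozen.S1377 G _ _ hG))
    (_h1378 : type_of% (@Cfsg.CfsgFrozen.S1378 G _ _ hG))
    (_h1429 : type_of% (@Cfsg.CfsgFrozen.S1429 G _ _ hG))
    (_h1430 : type_of% (@Cfsg.CfsgFrozen.S1430 G _ _ hG))
    (_h1431 : type_of% (@Cfsg.CfsgFrozen.S1431 G _ _ hG))
    (_h1432 : type_of% (@Cfsg.CfsgFrozen.S1432 G _ _ hG))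
    (_h1433 : type_of% (@Cfsg.CfsgFrozen.S1433 G _ _ hG))
    (M : Subgroup G), IsCoatom M → ∀ K : Subgroup G, Cfsg.IsPiHallOf (Cfsg.kappa M) K M → K ≠ ⊥ →
    ∃ Mstar : Subgroup G, IsCoatom Mstar ∧ Cfsg.IsPiHallOf (Cfsg.kappa Mstar) (kstar M K) Mstar ∧
      K = Cfsg.sigmaCore Mstar ⊓ Subgroup.centralizer ((kstar M K : Subgroup G) : Set G) ∧
      (¬ IsP1 M ∨ ¬ IsP1 Mstar)

end Cfsg.Agent.Lib.Helper2.BG47
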