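import Mathlib
import Cfsg.Agent.Lib.Helper2.BG.PartnerDefs
import Cfsg.Agent.Lib.Helper27.BG.SigmaBasic
import Cfsg.Agent.Lib.Helper67.BG.Basics
import Cfsg.Agent.Lib.Helper24.BG.S1431F1
import Cfsg.Agent.Lib.Helper1.SZInternal
import Cfsg.Agent.Lib.Helper35.BG.Basic

/-!
# Basic facts about `Good Z L KL` (B–G 14.7 team project)
-/

set_option autoImplicit false
set_option linter.unusedSectionVars false

namespace Cfsg.Agent.Lib.Helper2.BG47

open Cfsg

universe u

variable {G : Type u} [Group G]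

/-- CRT exponent: there is `e` with `(u * v) ^ e = v` whenever `u, v` commute, `u ^ m = 1` and
`v ^ n = 1` (`m`, `n` coprime). -/
theorem exists_pow_eq_right {m n : ℕ} (h : m.Coprime n) :
    ∃ e : ℕ, ∀ (u v : G), Commute u v → u ^ m = 1 → v ^ n = 1 → (u * v) ^ e = v := by
  obtain ⟨e, he0, he1⟩ := Nat.chineseRemainder h 0 1
  refine ⟨e, fun u v huv hu hv => ?_⟩
  rw [huv.mul_pow]
  have h1 : u ^ e = 1 := by
    have hd : m ∣ e := (Nat.modEq_zero_iff_dvd).mp he0
    obtain ⟨t, ht⟩ := hd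
    rw [ht, pow_mul, hu, one_pow]
  have h2 : v ^ e = v := by
    have hov : orderOf v ∣ n := orderOf_dvd_of_pow_eq_one hv
    have h3 : e ≡ 1 [MOD orderOf v] := Nat.ModEq.of_dvd hov he1
    have := (pow_eq_pow_iff_modEq).mpr h3
    simpa using this
  rw [h1, h2, one_mul]

theorem kstar_le_sigmaCore (L K : Subgroup G) : kstar L K ≤ sigmaCore L := inf_le_left

theorem kstar_le (L K : Subgroup G) : kstar L K ≤ L :=
  inf_le_left.trans (Cfsg.Agent.Lib.Helper67.BG.sigmaCore_le L)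

theorem kstar_commute {L K : Subgroup G} {k c : G} (hk : k ∈ K) (hc : c ∈ kstar L K) :
    k * c = c * k :=
  (Subgroup.mem_centralizer_iff.mp (Subgroup.mem_inf.mp hc).2) k hk

theorem kstar_le_normalizer (L K : Subgroup G) :
    kstar L K ≤ Subgroup.normalizer (K : Set G) :=
  inf_le_right.trans (Cfsg.Agent.Lib.Helper35.BG.centralizer_le_normalizer' K)

theorem pow_card_of_mem {H : Subgroup G} {x : G} (hx : x ∈ H) : x ^ Nat.card H = 1 :=
  orderOf_dvd_iff_pow_eq_one.mp (Subgroup.orderOf_dvd_natCard _ hx)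

variable [Finite G]

theorem good_coprime {Z L KL : Subgroup G} (h : Good Z L KL) :
    (Nat.card KL).Coprime (Nat.card (kstar L KL)) := by
  apply Nat.Coprime.symm
  apply Nat.coprime_of_dvd
  intro q hq h1 h2
  have hσ : q ∈ sigma L :=
    Cfsg.Agent.Lib.Helper67.BG.sigmaCore_isPi L q hq
      (h1.trans (Subgroup.card_dvd_of_le (kstar_le_sigmaCore L KL)))
  have hκ : q ∈ kappa L := h.2.1.2.1 q hq h2
  exact hκ.2.2.1 hσ

theorem good_card {Z L KL : Subgroup G} (h : Good Z L KL) :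
    Nat.card Z = Nat.card KL * Nat.card (kstar L KL) := by
  rw [← h.2.2.2]
  exact Cfsg.Agent.Lib.Helper1.card_sup_of_normalizer_coprime KL (kstar L KL)
    (kstar_le_normalizer L KL) (good_coprime h).symm

theorem good_le_left {Z L KL : Subgroup G} (h : Good Z L KL) : KL ≤ Z := by
  rw [← h.2.2.2]; exact le_sup_left

theorem good_le_right {Z L KL : Subgroup G} (h : Good Z L KL) : kstar L KL ≤ Z := by
  rw [← h.2.2.2]; exact le_sup_right

theorem good_le {Z L KL : Subgroup G} (h : Good Z L KL) : Z ≤ L := by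
  rw [← h.2.2.2]; exact sup_le h.2.1.1 (kstar_le L KL)

/-- Every element of `Z` is a product `k * c`, `k ∈ KL`, `c ∈ C_{L_σ}(KL)`. -/
theorem good_exists_mul {Z L KL : Subgroup G} (h : Good Z L KL) {z : G} (hz : z ∈ Z) :
    ∃ k ∈ KL, ∃ c ∈ kstar L KL, z = k * c := by
  rw [← h.2.2.2] at hz
  exact Cfsg.Agent.Lib.Helper24.BG31.exists_mul_of_mem_sup_norm (kstar_le_normalizer L KL) hz

/-- The exponents extracting the two components of an element of `Z`. -/
theorem good_exponents {Z L KL : Subgroup G} (h : Good Z L KL) :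
    ∃ e f : ℕ, ∀ k ∈ KL, ∀ c ∈ kstar L KL, (k * c) ^ e = c ∧ (k * c) ^ f = k := by
  obtain ⟨e, he⟩ := exists_pow_eq_right (G := G) (good_coprime h)
  obtain ⟨f, hf⟩ := exists_pow_eq_right (G := G) (good_coprime h).symm
  refine ⟨e, f, fun k hk c hc => ⟨?_, ?_⟩⟩
  · exact he k c (kstar_commute hk hc) (pow_card_of_mem hk)
      (pow_card_of_mem hc)
  · have hkc : k * c = c * k := kstar_commute hk hc
    rw [hkc]
    exact hf c k (kstar_commute hk hc).symm (pow_card_of_mem hc)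
      (pow_card_of_mem hk)

/-- The `σ(L)`-elements of `Z` lie in `C_{L_σ}(KL)`. -/
theorem good_mem_kstar_of_sigma {Z L KL : Subgroup G} (h : Good Z L KL) {z : G} (hz : z ∈ Z)
    (hσ : ∀ q : ℕ, q.Prime → q ∣ orderOf z → q ∈ sigma L) : z ∈ kstar L KL := by
  obtain ⟨k, hk, c, hc, rfl⟩ := good_exists_mul h hz
  obtain ⟨e, f, hef⟩ := good_exponents h
  have hkf : (k * c) ^ f = k := (hef k hk c hc).2
  have hk1 : k = 1 := by
    by_contra hne
    have ho : orderOf k ≠ 1 := fun h1 => hne (orderOf_eq_one_iff.mp h1)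
    obtain ⟨q, hq, hdvd⟩ := Nat.exists_prime_and_dvd ho
    have h1 : q ∣ orderOf (k * c) := by
      have : orderOf ((k * c) ^ f) ∣ orderOf (k * c) := orderOf_pow_dvd f
      rw [hkf] at this
      exact hdvd.trans this
    have h2 : q ∈ sigma L := hσ q hq h1
    have h3 : q ∣ Nat.card KL := hdvd.trans (Subgroup.orderOf_dvd_natCard _ hk)
    have h4 : q ∈ kappa L := h.2.1.2.1 q hq h3
    exact h4.2.2.1 h2
  rw [hk1, one_mul]; exact hc

/-- Elements of `C_{L_σ}(KL)` are `σ(L)`-elements. -/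
theorem kstar_sigma {L KL : Subgroup G} {c : G} (hc : c ∈ kstar L KL) :
    ∀ q : ℕ, q.Prime → q ∣ orderOf c → q ∈ sigma L := by
  intro q hq hdvd
  exact Cfsg.Agent.Lib.Helper67.BG.sigmaCore_isPi L q hq
    (hdvd.trans (Subgroup.orderOf_dvd_natCard _ (kstar_le_sigmaCore L KL hc)))

/-- `C_{L_σ}(KL)` depends only on `σ(L)` (for `Z`-good `L`). -/
theorem good_kstar_eq {Z L KL L' KL' : Subgroup G} (h : Good Z L KL) (h' : Good Z L' KL')
    (hσ : sigma L = sigma L') : kstar L KL = kstar L' KL' := by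
  apply le_antisymm
  · intro c hc
    exact good_mem_kstar_of_sigma h' (good_le_right h hc)
      (fun q hq hd => hσ ▸ kstar_sigma hc q hq hd)
  · intro c hc
    exact good_mem_kstar_of_sigma h (good_le_right h' hc)
      (fun q hq hd => hσ ▸ kstar_sigma hc q hq hd)

/-- A nontrivial element of `C_{L_σ}(KL)` lies in no conjugate of `L` other than `L`. -/
theorem good_mem_of_conj (hG : Cfsg.IsMinSimpleOddOrder G)
    (h1431 : type_of% (@Cfsg.CfsgFrozen.S1431 G _ _ hG)) {Z L KL : Subgroup G} (h : Good Z L KL) {g c : G}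
    (hc : c ∈ kstar L KL) (hc1 : c ≠ 1) (hcg : c ∈ L.map (MulAut.conj g).toMonoidHom) : g ∈ L := by
  by_contra hg
  have h1 := (h1431 L h.1 KL h.2.1 h.2.2.1).1 g hg
  have h2 : c ∈ (⊥ : Subgroup G) := by
    rw [← h1]; exact Subgroup.mem_inf.mpr ⟨hc, hcg⟩
  exact hc1 (Subgroup.mem_bot.mp h2)

/-- `C_G(c) ≤ L` for `c ∈ C_{L_σ}(KL)`, `c ≠ 1`. -/
theorem good_centralizer_le (hG : Cfsg.IsMinSimpleOddOrder G)
    (h1431 : type_of% (@Cfsg.CfsgFrozen.S1431 G _ _ hG)) {Z L KL : Subgroup G} (h : Good Z L KL) {c : G}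
    (hc : c ∈ kstar L KL) (hc1 : c ≠ 1) : Subgroup.centralizer ({c} : Set G) ≤ L := by
  intro x hx
  apply good_mem_of_conj hG h1431 h hc hc1
  refine ⟨c, kstar_le L KL hc, ?_⟩
  have h1 : c * x = x * c := (Subgroup.mem_centralizer_iff.mp hx) c (Set.mem_singleton c)
  show x * c * x⁻¹ = c
  rw [← h1, mul_assoc, mul_inv_cancel, mul_one]

/-- An element of `L` conjugating a nontrivial element of `KL` into `KL` lies in `Z`. -/
theorem good_mem_of_conj_K (hG : Cfsg.IsMinSimpleOddOrder G)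
    (h1431 : type_of% (@Cfsg.CfsgFrozen.S1431 G _ _ hG)) {Z L KL : Subgroup G} (h : Good Z L KL) {g k : G} (hg : g ∈ L)
    (hk : k ∈ KL) (hk1 : k ≠ 1) (hkg : g * k * g⁻¹ ∈ KL) : g ∈ Z := by
  by_contra hgZ
  rw [← h.2.2.2] at hgZ
  have h1 := (h1431 L h.1 KL h.2.1 h.2.2.1).2.1 g hg hgZ
  have h2 : g * k * g⁻¹ ∈ (⊥ : Subgroup G) := by
    rw [← h1]; exact Subgroup.mem_inf.mpr ⟨hkg, ⟨k, hk, rfl⟩⟩
  have h3 : g * k * g⁻¹ = 1 := Subgroup.mem_bot.mp h2
  apply hk1
  have := congrArg (fun t => g⁻¹ * t * g) h3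
  simpa [mul_assoc] using this

/-- `|L_σ| ≥ 3 |C_{L_σ}(KL)|`. -/
theorem good_three_le (hG : Cfsg.IsMinSimpleOddOrder G)
    (h1431 : type_of% (@Cfsg.CfsgFrozen.S1431 G _ _ hG)) {Z L KL : Subgroup G} (h : Good Z L KL) (hks : kstar L KL ≠ ⊥) :
    3 * Nat.card (kstar L KL) ≤ Nat.card (sigmaCore L) := by
  have hodd : Odd (Nat.card G) := hG.1
  have hle : kstar L KL ≤ sigmaCore L := kstar_le_sigmaCore L KL
  have hcard : Nat.card (kstar L KL) * (kstar L KL).relIndex (sigmaCore L) =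
      Nat.card (sigmaCore L) := by
    have h1 := Subgroup.card_mul_index ((kstar L KL).subgroupOf (sigmaCore L))
    rw [Nat.card_congr (Subgroup.subgroupOfEquivOfLe hle).toEquiv] at h1
    exact h1
  have hne1 : (kstar L KL).relIndex (sigmaCore L) ≠ 1 := by
    intro h1
    have heq : sigmaCore L ≤ kstar L KL := Subgroup.relIndex_eq_one.mp h1
    have hc1 : Nat.card (kstar L KL) ≠ 1 := fun hc => hks (Subgroup.card_eq_one.mp hc)
    obtain ⟨p, hp, hdvd⟩ := Nat.exists_prime_and_dvd hc1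
    have : Fact p.Prime := ⟨hp⟩
    have S : Sylow p ↥(sigmaCore L) := default
    have h3 := ((h1431 L h.1 KL h.2.1 h.2.2.1).2.2.1 p hp hdvd S).2.2
    exact h3 ((Subgroup.map_subtype_le _).trans heq)
  have hoddr : Odd ((kstar L KL).relIndex (sigmaCore L)) := by
    have h1 : (kstar L KL).relIndex (sigmaCore L) ∣ Nat.card G :=
      (Dvd.intro_left _ hcard).trans (Subgroup.card_subgroup_dvd_card _)
    exact Odd.of_dvd_nat hodd h1
  have hpos : 0 < (kstar L KL).relIndex (sigmaCore L) := by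
    rcases Nat.eq_zero_or_pos ((kstar L KL).relIndex (sigmaCore L)) with h0 | h0
    · rw [h0, mul_zero] at hcard
      exact absurd hcard.symm (Nat.card_pos).ne'
    · exact h0
  have hge : 3 ≤ (kstar L KL).relIndex (sigmaCore L) := by
    obtain ⟨t, ht⟩ := hoddr
    omega
  calc 3 * Nat.card (kstar L KL) = Nat.card (kstar L KL) * 3 := by ring
    _ ≤ Nat.card (kstar L KL) * (kstar L KL).relIndex (sigmaCore L) :=
        Nat.mul_le_mul_left _ hge
    _ = Nat.card (sigmaCore L) := hcard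

/-- If every prime of `|L|` is in `σ(L) ∪ κ(L)` then `|L| = |L_σ| |KL|`. -/
theorem card_of_isP1 {L KL : Subgroup G} (hσ : IsPiHallOf (sigma L) (sigmaCore L) L)
    (hK : IsPiHallOf (kappa L) KL L) (hP1 : IsP1 L) :
    Nat.card L = Nat.card (sigmaCore L) * Nat.card KL := by
  have hcop : (Nat.card KL).Coprime (Nat.card (sigmaCore L)) := by
    apply Nat.coprime_of_dvd
    intro q hq h1 h2
    exact (hK.2.1 q hq h1).2.2.1 (Cfsg.Agent.Lib.Helper67.BG.sigmaCore_isPi L q hq h2)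
  have hKn : KL ≤ Subgroup.normalizer (sigmaCore L : Set G) :=
    hK.1.trans (Cfsg.Agent.Lib.Helper67.BG.sigmaCore_normalizer L)
  have hW : Nat.card (sigmaCore L ⊔ KL : Subgroup G) = Nat.card (sigmaCore L) * Nat.card KL :=
    Cfsg.Agent.Lib.Helper1.card_sup_of_normalizer_coprime (sigmaCore L) KL hKn hcop
  have hWL : sigmaCore L ⊔ KL ≤ L := sup_le (Cfsg.Agent.Lib.Helper67.BG.sigmaCore_le L) hK.1
  have hidx : (sigmaCore L ⊔ KL).relIndex L = 1 := by
    by_contra hne
    obtain ⟨q, hq, hdvd⟩ := Nat.exists_prime_and_dvd hne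
    have hqL : q ∣ Nat.card L := hdvd.trans (Subgroup.relIndex_dvd_card _ _)
    by_cases hqσ : q ∈ sigma L
    · exact hσ.2.2 q hq hqσ (hdvd.trans (Subgroup.relIndex_dvd_of_le_left L le_sup_left))
    · exact hK.2.2 q hq (hP1 q hq hqL hqσ)
        (hdvd.trans (Subgroup.relIndex_dvd_of_le_left L le_sup_right))
  have heq : L ≤ sigmaCore L ⊔ KL := Subgroup.relIndex_eq_one.mp hidx
  have hLW : L = sigmaCore L ⊔ KL := le_antisymm heq hWL
  calc Nat.card L = Nat.card ↥(sigmaCore L ⊔ KL) := by conv_lhs => rw [hLW]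
    _ = Nat.card (sigmaCore L) * Nat.card KL := hW

end Cfsg.Agent.Lib.Helper2.BG47
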