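import Mathlib
import Cfsg.Agent.Lib.Helper2.BG.PartnerDefs
import Cfsg.Statements.S1366

/-!
# S1366 (B–G Theorem 14.7, existence and uniqueness of `M*`) from the BG47 packages
-/

set_option autoImplicit false
set_option linter.unusedVariables false

namespace Cfsg.Agent.Lib.Helper2.BG47

open Cfsg

universe u

/-- S1366 from `PartnerExists` and package UNIQ. -/
theorem s1366_of (hPE : PartnerExists.{u}) (hUniq : LemUniq.{u})
    {G : Type u} [Group G] [Finite G] (hG : Cfsg.IsMinSimpleOddOrder G)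
    (h1350 : type_of% (@Cfsg.CfsgFrozen.S1350 G _ _ hG))
    (h1375 : type_of% (@Cfsg.CfsgFrozen.S1375 G _ _ hG))
    (h1377 : type_of% (@Cfsg.CfsgFrozen.S1377 G _ _ hG))
    (h1378 : type_of% (@Cfsg.CfsgFrozen.S1378 G _ _ hG))
    (h1429 : type_of% (@Cfsg.CfsgFrozen.S1429 G _ _ hG))
    (h1430 : type_of% (@Cfsg.CfsgFrozen.S1430 G _ _ hG))
    (h1431 : type_of% (@Cfsg.CfsgFrozen.S1431 G _ _ hG))
    (h1432 : type_of% (@Cfsg.CfsgFrozen.S1432 G _ _ hG))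
    (h1433 : type_of% (@Cfsg.CfsgFrozen.S1433 G _ _ hG)) :
    type_of% (@Cfsg.CfsgFrozen.S1366 G _ _ hG) := by
  intro M hM K U hKU hK1
  obtain ⟨Mstar, h1, h2, h3, -⟩ :=
    hPE hG h1350 h1375 h1377 h1378 h1429 h1430 h1431 h1432 h1433 M hM K hKU.hall hK1
  refine ⟨Mstar, ⟨h1, h3, h2⟩, ?_⟩
  rintro M2 ⟨h1', h3', h2'⟩
  exact hUniq hG h1350 h1430 h1431 M hM K hKU.hall hK1 M2 Mstar h1' h1 h3' h2' h3 h2

end Cfsg.Agent.Lib.Helper2.BG47
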