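import Mathlib
import Cfsg.Statements.S1351
import Cfsg.Statements.S1430
import Cfsg.Statements.S1434
import Cfsg.Agent.Lib.Helper67.BG.Basics
import Cfsg.Agent.Lib.Helper47.BG.S1353Core
import Cfsg.Agent.Lib.Helper35.BG.Basic
import Cfsg.Agent.Lib.Helper32.Tight

/-!
Bender–Glauberman campaign: statement S1368 (`M ∩ M* = K K*`, cyclic) derived from S1351 (Hall
`κ`-subgroups are cyclic), S1430 (`N_M(K) = K K*`) and S1434 (`K*` is a Hall `σ(M)`-subgroup of
`M*`), all taken as hypotheses.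
-/

set_option autoImplicit false

namespace Cfsg.Agent.Lib.Helper2.BG

open Cfsg

/-- A subgroup `D` all of whose elements conjugate `H` into itself normalizes `H`. -/
theorem le_normalizer_of_forall_conj_mem {G : Type*} [Group G] {D H : Subgroup G}
    (h : ∀ d ∈ D, ∀ x ∈ H, d * x * d⁻¹ ∈ H) : D ≤ Subgroup.normalizer (H : Set G) := by
  intro d hd
  rw [Subgroup.mem_normalizer_iff]
  intro x
  constructor
  · exact h d hd x
  · intro hx
    have h1 := h d⁻¹ (D.inv_mem hd) _ hx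
    have e : d⁻¹ * (d * x * d⁻¹) * d⁻¹⁻¹ = x := by group
    rw [e] at h1
    exact h1

/-- Two elementwise commuting cyclic subgroups of coprime orders generate a cyclic subgroup. -/
theorem isCyclic_sup_of_commute_of_coprime {G : Type*} [Group G] [Finite G] {A B : Subgroup G}
    (hA : IsCyclic A) (hB : IsCyclic B) (hcomm : ∀ a ∈ A, ∀ b ∈ B, a * b = b * a)
    (hcop : (Nat.card A).Coprime (Nat.card B)) : IsCyclic ↥(A ⊔ B) := by
  obtain ⟨a, ha⟩ := hA.exists_generator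
  obtain ⟨b, hb⟩ := hB.exists_generator
  have hoa : orderOf (a : G) = Nat.card A := by
    rw [Subgroup.orderOf_coe]; exact orderOf_eq_card_of_forall_mem_zpowers ha
  have hob : orderOf (b : G) = Nat.card B := by
    rw [Subgroup.orderOf_coe]; exact orderOf_eq_card_of_forall_mem_zpowers hb
  have hc : Commute (a : G) (b : G) := hcomm a a.2 b b.2
  have hord : orderOf ((a : G) * (b : G)) = Nat.card A * Nat.card B := by
    rw [hc.orderOf_mul_eq_mul_orderOf_of_coprime (by rw [hoa, hob]; exact hcop), hoa, hob]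
  have hBN : B ≤ Subgroup.normalizer (A : Set G) := by
    refine le_normalizer_of_forall_conj_mem ?_
    intro d hd x hx
    have : d * x * d⁻¹ = x := by rw [← hcomm x hx d hd]; group
    rw [this]; exact hx
  have hcard : Nat.card (A ⊔ B : Subgroup G) = Nat.card A * Nat.card B :=
    Cfsg.Agent.Lib.Helper32.card_sup_of_le_normalizer hBN
      (Subgroup.disjoint_of_coprime_natCard hcop).eq_bot
  have hmem : (a : G) * (b : G) ∈ A ⊔ B :=
    Subgroup.mul_mem _ (Subgroup.mem_sup_left a.2) (Subgroup.mem_sup_right b.2)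
  apply isCyclic_of_orderOf_eq_card (⟨(a : G) * (b : G), hmem⟩ : ↥(A ⊔ B))
  rw [← Subgroup.orderOf_coe, hcard]
  exact hord

/-- Statement S1368 from S1351, S1430 and S1434. -/
theorem s1368_core {G : Type*} [Group G] [Finite G] (hG : Cfsg.IsMinSimpleOddOrder G)
    (h1351 : type_of% (@Cfsg.CfsgFrozen.S1351 G _ _ hG))
    (h1430 : type_of% (@Cfsg.CfsgFrozen.S1430 G _ _ hG))
    (h1434 : type_of% (@Cfsg.CfsgFrozen.S1434 G _ _ hG))
    (M : Subgroup G) (hM : IsCoatom M) (K U : Subgroup G) (hKU : Cfsg.IsSigmaDecomposition M K U) (hK1 : K ≠ ⊥) (Mstar : Subgroup G) (hMstar : IsCoatom Mstar)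
    (hKst : K = Cfsg.sigmaCore Mstar ⊓ Subgroup.centralizer ((Cfsg.sigmaCore M ⊓ Subgroup.centralizer (K : Set G)) : Set G))
    (hKstH : Cfsg.IsPiHallOf (Cfsg.kappa Mstar) (Cfsg.sigmaCore M ⊓ Subgroup.centralizer (K : Set G)) Mstar) :
    M ⊓ Mstar = K ⊔ (Cfsg.sigmaCore M ⊓ Subgroup.centralizer (K : Set G)) ∧ IsCyclic ↥(K ⊔ (Cfsg.sigmaCore M ⊓ Subgroup.centralizer (K : Set G))) := by
  have h34 := (h1434 M hM K U hKU hK1 Mstar hMstar hKst hKstH).2.1
  have h30 := (h1430 M hM K hKU.hall hK1).2.2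
  obtain ⟨Ks, hKsdef⟩ : ∃ Ks : Subgroup G,
      Ks = Cfsg.sigmaCore M ⊓ Subgroup.centralizer (K : Set G) := ⟨_, rfl⟩
  have hKst : K = Cfsg.sigmaCore Mstar ⊓ Subgroup.centralizer (Ks : Set G) := by
    rw [hKsdef]; exact hKst
  rw [← hKsdef] at hKstH h34 h30 ⊢
  have hSM : Cfsg.sigmaCore M ≤ M := Cfsg.Agent.Lib.Helper67.BG.sigmaCore_le M
  have hKsS : Ks ≤ Cfsg.sigmaCore M := hKsdef ▸ inf_le_left
  have hKsC : Ks ≤ Subgroup.centralizer (K : Set G) := hKsdef ▸ inf_le_right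
  have hKsM : Ks ≤ M := hKsS.trans hSM
  have hKsMs : Ks ≤ Mstar := hKstH.1
  have hKM : K ≤ M := hKU.hall.1
  have hKMs : K ≤ Mstar :=
    (hKst.le.trans inf_le_left).trans (Cfsg.Agent.Lib.Helper67.BG.sigmaCore_le Mstar)
  -- `N_M(K) = K K*`
  have hNK : M ⊓ Subgroup.normalizer (K : Set G) = K ⊔ Ks := by
    obtain ⟨⟨k, hk⟩, hk1'⟩ := Subgroup.ne_bot_iff_exists_ne_one.mp hK1
    have hk1 : k ≠ 1 := fun h => hk1' (Subtype.ext h)
    obtain ⟨X, hXk, hXp⟩ := Cfsg.Agent.Lib.Helper47.BG.exists_prime_card_le_zpowers hk1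
    have hXK : X ≤ K := hXk.trans ((Subgroup.zpowers_le).mpr hk)
    exact (h30 X hXK hXp).2.1
  -- `M_σ ∩ M* = K*`
  have hT : Cfsg.sigmaCore M ⊓ Mstar = Ks := by
    apply le_antisymm _ (le_inf hKsS hKsMs)
    have hKsT : Ks ≤ Cfsg.sigmaCore M ⊓ Mstar := le_inf hKsS hKsMs
    have hTMs : Cfsg.sigmaCore M ⊓ Mstar ≤ Mstar := inf_le_right
    rw [← Subgroup.relIndex_eq_one]
    by_contra hne
    obtain ⟨p, hp, hdvd⟩ := Nat.exists_prime_and_dvd hne
    have h1 : p ∣ Nat.card ↥(Cfsg.sigmaCore M ⊓ Mstar) := hdvd.trans (Subgroup.relIndex_dvd_card _ _)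
    have h2 : p ∣ Nat.card (Cfsg.sigmaCore M) :=
      h1.trans (Subgroup.card_dvd_of_le inf_le_left)
    have hpσ : p ∈ Cfsg.sigma M := Cfsg.Agent.Lib.Helper67.BG.sigmaCore_isPi M p hp h2
    apply h34.2.2 p hp hpσ
    rw [← Subgroup.relIndex_mul_relIndex Ks (Cfsg.sigmaCore M ⊓ Mstar) Mstar hKsT hTMs]
    exact Dvd.dvd.mul_right hdvd _
  -- `M ∩ M*` normalizes `K*`
  have hDKs : ∀ d ∈ M ⊓ Mstar, ∀ x ∈ Ks, d * x * d⁻¹ ∈ Ks := by
    intro d hd x hx
    rw [← hT]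
    refine Subgroup.mem_inf.mpr
      ⟨?_, Mstar.mul_mem (Mstar.mul_mem hd.2 (hKsMs hx)) (Mstar.inv_mem hd.2)⟩
    exact (Subgroup.mem_normalizer_iff.mp
      (Cfsg.Agent.Lib.Helper67.BG.sigmaCore_normalizer M hd.1) x).mp (hKsS hx)
  -- `M ∩ M*` normalizes `K`
  have hDK : M ⊓ Mstar ≤ Subgroup.normalizer (K : Set G) := by
    refine le_normalizer_of_forall_conj_mem ?_
    intro d hd x hx
    have hx' : x ∈ Cfsg.sigmaCore Mstar ⊓ Subgroup.centralizer (Ks : Set G) := hKst ▸ hx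
    have hgoal : d * x * d⁻¹ ∈ Cfsg.sigmaCore Mstar ⊓ Subgroup.centralizer (Ks : Set G) := by
      refine Subgroup.mem_inf.mpr ⟨?_, ?_⟩
      · exact (Subgroup.mem_normalizer_iff.mp
          (Cfsg.Agent.Lib.Helper67.BG.sigmaCore_normalizer Mstar hd.2) x).mp hx'.1
      · rw [Subgroup.mem_centralizer_iff]
        intro y hy
        have hy' : d⁻¹ * y * d⁻¹⁻¹ ∈ Ks := hDKs d⁻¹ ((M ⊓ Mstar).inv_mem hd) y hy
        have h3 := (Subgroup.mem_centralizer_iff.mp hx'.2) _ hy'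
        calc y * (d * x * d⁻¹) = d * (d⁻¹ * y * d⁻¹⁻¹ * x) * d⁻¹ := by group
          _ = d * (x * (d⁻¹ * y * d⁻¹⁻¹)) * d⁻¹ := by rw [h3]
          _ = d * x * d⁻¹ * y := by group
    rw [hKst]
    exact hgoal
  refine ⟨?_, ?_⟩
  · apply le_antisymm
    · rw [← hNK]
      exact le_inf inf_le_left hDK
    · exact sup_le (le_inf hKM hKMs) (le_inf hKsM hKsMs)
  · have hKscyc : IsCyclic Ks := (h1351 Mstar hMstar).2 Ks hKstH
    have hcop : (Nat.card K).Coprime (Nat.card Ks) := by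
      rw [Nat.coprime_iff_gcd_eq_one]
      by_contra hne
      obtain ⟨p, hp, hdvd⟩ := Nat.exists_prime_and_dvd hne
      have h1 : p ∈ Cfsg.kappa M := hKU.hall.2.1 p hp (hdvd.trans (Nat.gcd_dvd_left _ _))
      have h2 : p ∈ Cfsg.sigma M := Cfsg.Agent.Lib.Helper67.BG.sigmaCore_isPi M p hp
        ((hdvd.trans (Nat.gcd_dvd_right _ _)).trans (Subgroup.card_dvd_of_le hKsS))
      exact h1.2.2.1 h2
    refine isCyclic_sup_of_commute_of_coprime hKU.cyclic hKscyc ?_ hcop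
    intro a ha b hb
    exact (Subgroup.mem_centralizer_iff.mp (hKsC hb)) a ha
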