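import Mathlib
import Cfsg.Statements.S1404
import Cfsg.Statements.S1416
import Cfsg.Agent.Lib.Helper35.BG.Basic
import Cfsg.Agent.Lib.Helper20.BG.S1408Core
import Cfsg.Agent.Lib.Helper69.Kulakoff
import Cfsg.Agent.Lib.Helper77.CyclicAct

/-!
Bender–Glauberman: statement S1424 (sigma-subgroup `X` of `M` with `N_G(X) ≤ M* ≠ M`, `S` a Sylow
`q`-subgroup of `M ∩ M*` containing `X`: `M*` is not conjugate to `M`, `N_G(S) ≤ M`, and `S` is
Sylow in `M*`), derived from BG 10.1 (S1404) and BG 12.4(a) (S1416, first clause only), both taken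
as hypotheses.
-/

set_option autoImplicit false

namespace Cfsg.Agent.Lib.Helper2.BG

open Cfsg Cfsg.Agent.Lib.Helper46 Cfsg.Agent.Lib.Helper35.BG

/-- A noncyclic `q`-subgroup, `q` odd, contains an elementary abelian subgroup of order `q ^ 2`. -/
theorem exists_ea_sq_of_not_isCyclic {G : Type*} [Group G] [Finite G] {q : ℕ} [hq : Fact q.Prime]
    (hq2 : q ≠ 2) {S : Subgroup G} (hS : IsPGroup q S) (hnc : ¬ IsCyclic S) :
    ∃ A : Subgroup G, A ≤ S ∧ Cfsg.IsElementaryAbelian q A ∧ Nat.card A = q ^ 2 := by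
  have hqp : q.Prime := hq.out
  obtain ⟨n, hn⟩ := IsPGroup.iff_card.mp hS
  have hn2 : 2 ≤ n := by
    by_contra hlt
    push Not at hlt
    apply hnc
    interval_cases n
    · rw [pow_zero] at hn
      have : Subsingleton ↥S := (Nat.card_eq_one_iff_unique.mp hn).1
      exact isCyclic_of_subsingleton
    · rw [pow_one] at hn
      exact isCyclic_of_prime_card hn
  have hk := Cfsg.Agent.Lib.Helper69.kulakoff q hq2 n ↥S hn hnc 1 le_rfl (by omega)
  rw [pow_one] at hk
  have hq3 : 3 ≤ q := by have := hqp.two_le; omega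
  have hex : ∃ X Y : Subgroup ↥S, Nat.card X = q ∧ Nat.card Y = q ∧ X ≠ Y := by
    by_contra hcon
    push Not at hcon
    have hsub : Subsingleton (Cfsg.Agent.Lib.Helper69.OrdSub ↥S q) :=
      ⟨fun a b => Subtype.ext (hcon a.1 b.1 a.2 b.2)⟩
    have hle : Nat.card (Cfsg.Agent.Lib.Helper69.OrdSub ↥S q) ≤ 1 :=
      Finite.card_le_one_iff_subsingleton.mpr hsub
    have hcases : Nat.card (Cfsg.Agent.Lib.Helper69.OrdSub ↥S q) = 0 ∨
        Nat.card (Cfsg.Agent.Lib.Helper69.OrdSub ↥S q) = 1 := by omega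
    rcases hcases with h0 | h1
    · rw [h0, Nat.cast_zero] at hk
      have h2 : ((1 + q : ℕ) : ZMod (q ^ 2)) = 0 := by
        push_cast
        exact hk.symm
      have h3 := (ZMod.natCast_eq_zero_iff (1 + q) (q ^ 2)).mp h2
      have h4 := Nat.le_of_dvd (by omega) h3
      nlinarith
    · rw [h1, Nat.cast_one] at hk
      have h2 : ((q : ℕ) : ZMod (q ^ 2)) = 0 :=
        add_left_cancel (hk.symm.trans (add_zero (1 : ZMod (q ^ 2))).symm)
      have h3 := (ZMod.natCast_eq_zero_iff q (q ^ 2)).mp h2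
      have h4 := Nat.le_of_dvd (by omega) h3
      nlinarith
  obtain ⟨X, Y, hX, hY, hXY⟩ := hex
  have hX' : Nat.card (X.map S.subtype) = q := by
    rw [Subgroup.card_map_of_injective S.subtype_injective]; exact hX
  have hY' : Nat.card (Y.map S.subtype) = q := by
    rw [Subgroup.card_map_of_injective S.subtype_injective]; exact hY
  have hne : X.map S.subtype ≠ Y.map S.subtype :=
    fun h => hXY (Subgroup.map_injective S.subtype_injective h)
  obtain ⟨A, hAS, hA, -, hAc⟩ := Cfsg.Agent.Lib.Helper20.BG.ea_of_two_order_p hS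
    (Subgroup.map_subtype_le X) (Subgroup.map_subtype_le Y) hX' hY' hne
  have hAp : IsPGroup q A := Cfsg.Agent.Lib.Helper20.BG.isPGroup_of_ea hA
  obtain ⟨k, hk2⟩ := IsPGroup.iff_card.mp hAp
  have hk2' : 2 ≤ k := by
    by_contra hlt
    push Not at hlt
    rw [hk2] at hAc
    interval_cases k
    · rw [pow_zero] at hAc; omega
    · rw [pow_one] at hAc; omega
  have hdvd : q ^ 2 ∣ Nat.card ↥A := by rw [hk2]; exact pow_dvd_pow q hk2'
  obtain ⟨K, hK⟩ := Sylow.exists_subgroup_card_pow_prime q hdvd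
  refine ⟨K.map A.subtype, (Subgroup.map_subtype_le K).trans hAS, ⟨?_, ?_⟩, ?_⟩
  · exact ⟨⟨fun a b => Subtype.ext (Cfsg.Agent.Lib.Helper20.BG.ea_comm hA a
      (Subgroup.map_subtype_le K a.2) b (Subgroup.map_subtype_le K b.2))⟩⟩
  · intro a ha
    exact hA.2 a (Subgroup.map_subtype_le K ha)
  · rw [Subgroup.card_map_of_injective A.subtype_injective]; exact hK

/-- Statement S1424 from BG 10.1 (S1404) and BG 12.4(a) (S1416). -/
theorem s1424_core {G : Type*} [Group G] [Finite G] (hG : Cfsg.IsMinSimpleOddOrder G)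
    (h1404 : type_of% (@Cfsg.CfsgFrozen.S1404 G _ _ hG))
    (h1416 : type_of% (@Cfsg.CfsgFrozen.S1416 G _ _ hG))
    (M : Subgroup G) (hM : IsCoatom M) (q : ℕ) [Fact q.Prime] (hq : q ∈ Cfsg.sigma M) (X : Subgroup G) (hXq : IsPGroup q X) (hX1 : X ≠ ⊥) (hXM : X ≤ M)
    (Mstar : Subgroup G) (hMs : IsCoatom Mstar) (hne : Mstar ≠ M) (hNX : Subgroup.normalizer (X : Set G) ≤ Mstar)
    (S : Sylow q ↥(M ⊓ Mstar)) (hXS : X ≤ (S : Subgroup ↥(M ⊓ Mstar)).map (M ⊓ Mstar).subtype) :
    (∀ g : G, Mstar ≠ M.map (MulAut.conj g).toMonoidHom) ∧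
      Subgroup.normalizer (((S : Subgroup ↥(M ⊓ Mstar)).map (M ⊓ Mstar).subtype : Subgroup G) : Set G) ≤ M ∧
      ¬ q ∣ ((S : Subgroup ↥(M ⊓ Mstar)).map (M ⊓ Mstar).subtype).relIndex Mstar := by
  have hqp : q.Prime := Fact.out
  have hq2 : q ≠ 2 := by
    intro h2
    have h3 : q ∣ Nat.card M := hq.2.1
    rw [h2] at h3
    have h4 : 2 ∣ Nat.card G := h3.trans (Subgroup.card_subgroup_dvd_card M)
    exact (Nat.not_even_iff_odd.mpr hG.1) (even_iff_two_dvd.mpr h4)
  obtain ⟨S', hS'def⟩ : ∃ S' : Subgroup G,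
      S' = (S : Subgroup ↥(M ⊓ Mstar)).map (M ⊓ Mstar).subtype := ⟨_, rfl⟩
  rw [← hS'def] at hXS ⊢
  have hSyl : IsSylowIn q S' (M ⊓ Mstar) := by rw [hS'def]; exact isSylowIn_of_sylow S
  have hS'q : IsPGroup q S' := sylIn_isPGroup hSyl
  have hS'M : S' ≤ M := hSyl.1.trans inf_le_left
  have hS'Ms : S' ≤ Mstar := hSyl.1.trans inf_le_right
  have hS'1 : S' ≠ ⊥ := fun h => hX1 (le_bot_iff.mp (h ▸ hXS))
  have hCN : Subgroup.centralizer (X : Set G) ≤ Mstar := (centralizer_le_normalizer' X).trans hNX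
  -- part 1
  have part1 : ∀ g : G, Mstar ≠ M.map (MulAut.conj g).toMonoidHom := by
    intro g hg
    have hX'M : X.map (MulAut.conj g⁻¹).toMonoidHom ≤ M := by
      intro y hy
      rw [mem_map_conj_iff, inv_inv] at hy
      have h1 : g * y * g⁻¹ ∈ Mstar := hS'Ms (hXS hy)
      rw [hg, mem_map_conj_iff] at h1
      have e : g⁻¹ * (g * y * g⁻¹) * g = y := by group
      rw [e] at h1; exact h1
    have hX'q : IsPGroup q (X.map (MulAut.conj g⁻¹).toMonoidHom) := isPGroup_map_conj hXq _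
    have hX'1 : X.map (MulAut.conj g⁻¹).toMonoidHom ≠ ⊥ := by
      intro h
      exact hX1 ((Subgroup.map_eq_bot_iff_of_injective X (MulAut.conj g⁻¹).injective).mp h)
    have hback : (X.map (MulAut.conj g⁻¹).toMonoidHom).map (MulAut.conj g).toMonoidHom = X := by
      rw [map_conj_mul, mul_inv_cancel, map_conj_one]
    obtain ⟨m, hm, c, hc, hgmc⟩ :=
      (h1404 M hM q hq _ hX'q hX'1 hX'M).1 g (by rw [hback]; exact hXM)
    have hcM : c ∈ M := by
      have h2 : g * c * g⁻¹ ∈ Subgroup.centralizer (X : Set G) := by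
        rw [Subgroup.mem_centralizer_iff]
        intro x hx
        have hx' : g⁻¹ * x * g ∈ X.map (MulAut.conj g⁻¹).toMonoidHom := by
          have := conj_mem_map_conj g⁻¹ hx
          rwa [inv_inv] at this
        have h3 := (Subgroup.mem_centralizer_iff.mp hc) _ hx'
        calc x * (g * c * g⁻¹) = g * (g⁻¹ * x * g * c) * g⁻¹ := by group
          _ = g * (c * (g⁻¹ * x * g)) * g⁻¹ := by rw [h3]
          _ = g * c * g⁻¹ * x := by group
      have h4 : g * c * g⁻¹ ∈ Mstar := hCN h2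
      rw [hg, mem_map_conj_iff] at h4
      have e : g⁻¹ * (g * c * g⁻¹) * g = c := by group
      rw [e] at h4; exact h4
    have hgM : g ∈ M := by rw [hgmc]; exact M.mul_mem hm hcM
    have hMM : M.map (MulAut.conj g).toMonoidHom = M :=
      map_conj_eq_of_mem_normalizer (Subgroup.le_normalizer hgM)
    exact hne (hg.trans hMM)
  -- part 2
  have part2 : Subgroup.normalizer (S' : Set G) ≤ M := by
    by_cases hcyc : IsCyclic S'
    · have hNN : Subgroup.normalizer (S' : Set G) ≤ Subgroup.normalizer (X : Set G) :=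
        Cfsg.Agent.Lib.Helper77.normalizer_le_normalizer_of_isCyclic hcyc hXS
      obtain ⟨P, hP, hS'P⟩ := exists_isSylowIn_ge hS'q hS'M
      have hPq := sylIn_isPGroup hP
      have hEq : S' = P := by
        by_contra hne'
        obtain ⟨x, hxP, hxN, hxS⟩ := exists_mem_normalizer_not_mem hPq hS'P hne'
        have h1 : P ⊓ Subgroup.normalizer (S' : Set G) = S' :=
          sylIn_eq_of_le hSyl (hPq.to_le inf_le_left)
            (le_inf (inf_le_left.trans hP.1) (inf_le_right.trans (hNN.trans hNX)))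
            (le_inf hS'P Subgroup.le_normalizer)
        exact hxS (h1 ▸ Subgroup.mem_inf.mpr ⟨hxP, hxN⟩)
      rw [hEq]
      exact normalizer_le_of_sigma hq hP
    · obtain ⟨A, hAS, hA, hAc⟩ := exists_ea_sq_of_not_isCyclic hq2 hS'q hcyc
      have hCA : Subgroup.centralizer (A : Set G) ≤ M :=
        (h1416 M hM q A ⟨hAS.trans hS'M, hA, hAc⟩).1
      have hCS : Subgroup.centralizer (S' : Set G) ≤ M := (centralizer_anti hAS).trans hCA
      have h := (h1404 M hM q hq S' hS'q hS'1 hS'M).2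
      intro x hx
      rw [h] at hx
      exact (sup_le inf_le_left hCS) hx
  -- part 3
  have part3 : ¬ q ∣ S'.relIndex Mstar := by
    obtain ⟨Q, hQ, hS'Q⟩ := exists_isSylowIn_ge hS'q hS'Ms
    have hQq := sylIn_isPGroup hQ
    have hEq : S' = Q := by
      by_contra hne'
      obtain ⟨x, hxQ, hxN, hxS⟩ := exists_mem_normalizer_not_mem hQq hS'Q hne'
      have h1 : Q ⊓ Subgroup.normalizer (S' : Set G) = S' :=
        sylIn_eq_of_le hSyl (hQq.to_le inf_le_left)
          (le_inf (inf_le_right.trans part2) (inf_le_left.trans hQ.1))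
          (le_inf hS'Q Subgroup.le_normalizer)
      exact hxS (h1 ▸ Subgroup.mem_inf.mpr ⟨hxQ, hxN⟩)
    have hSylM : IsSylowIn q S' Mstar := hEq ▸ hQ
    intro hdvd
    have hc : Nat.card (S'.subgroupOf Mstar) = Nat.card S' :=
      Nat.card_congr (Subgroup.subgroupOfEquivOfLe hS'Ms).toEquiv
    have h1 : Nat.card S' * S'.relIndex Mstar = Nat.card Mstar := by
      rw [← hc]; exact (S'.subgroupOf Mstar).card_mul_index
    have h2 : q ^ ((Nat.card Mstar).factorization q + 1) ∣ Nat.card Mstar := by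
      obtain ⟨t, ht⟩ := hdvd
      refine ⟨t, ?_⟩
      rw [pow_succ, ← hSylM.2, mul_assoc, ← ht, h1]
    exact Nat.pow_succ_factorization_not_dvd (Nat.card_pos.ne') hqp h2
  exact ⟨part1, part2, part3⟩

end Cfsg.Agent.Lib.Helper2.BG
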