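import Mathlib
import Cfsg.Agent.Lib.Helper24.BG.S1431Defs

/-!
# Package A2 of the S1431 team project (transfer)

`S` an abelian Sylow `p`-subgroup of `N` contained in the derived subgroup of `N`: no
non-identity element of `S` is central in `N`.
-/

set_option autoImplicit false

namespace Cfsg.Agent.Lib.Helper2.BG

open Cfsg Cfsg.Agent.Lib.Helper46

universe u

open scoped IsMulCommutative in
theorem lemTransfer : Cfsg.Agent.Lib.Helper24.BG31.LemTransfer.{u} := by
  intro G _ _ p _ S N hS hcomm hSN z hz hzc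
  have hp : p.Prime := Fact.out
  have hSleN : S ≤ N := hS.1
  have hzN : z ∈ N := hSleN hz
  -- the subgroup `S' = S ∩ N` of `↥N`
  obtain ⟨S', hS'⟩ : ∃ S' : Subgroup ↥N, S' = S.subgroupOf N := ⟨_, rfl⟩
  have hmemS' : ∀ x : ↥N, x ∈ S' ↔ (x : G) ∈ S := by
    intro x; rw [hS']; exact Subgroup.mem_subgroupOf
  have hcS' : IsMulCommutative S' :=
    ⟨⟨fun a b => Subtype.ext (Subtype.ext (by
      have ha : ((a : ↥N) : G) ∈ S := (hmemS' _).1 a.2
      have hb : ((b : ↥N) : G) ∈ S := (hmemS' _).1 b.2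
      exact setLike_mul_comm ha hb))⟩⟩
  -- the element `z' : ↥N`
  obtain ⟨z', hz'⟩ : ∃ z' : ↥N, z' = ⟨z, hzN⟩ := ⟨_, rfl⟩
  have hz'v : (z' : G) = z := by rw [hz']
  have hz'S : z' ∈ S' := (hmemS' _).2 (by rw [hz'v]; exact hz)
  have hz'c : ∀ n : ↥N, n * z' = z' * n := by
    intro n
    apply Subtype.ext
    simp only [Subgroup.coe_mul, hz'v]
    exact hzc n n.2
  -- the key hypothesis of `transfer_eq_pow`
  have key : ∀ (k : ℕ) (g₀ : ↥N), g₀⁻¹ * z' ^ k * g₀ ∈ S' → g₀⁻¹ * z' ^ k * g₀ = z' ^ k := by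
    intro k g₀ _
    have hc : Commute g₀ z' := hz'c g₀
    have hc2 : g₀ * z' ^ k = z' ^ k * g₀ := (hc.pow_right k).eq
    rw [mul_assoc, ← hc2, ← mul_assoc, inv_mul_cancel, one_mul]
  have htr := MonoidHom.transfer_eq_pow (MonoidHom.id S') z' key
  -- `z'` is in the commutator subgroup of `↥N`
  have hz'comm : z' ∈ commutator ↥N := by
    have h1 : (commutator ↥N).map N.subtype = ⁅N, N⁆ := Subgroup.map_subtype_commutator N
    have h2 : z ∈ (commutator ↥N).map N.subtype := by rw [h1]; exact hSN hz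
    obtain ⟨w, hw, hwz⟩ := h2
    have : w = z' := Subtype.ext (by rw [hz'v]; exact hwz)
    rw [← this]; exact hw
  have hker : MonoidHom.transfer (MonoidHom.id S') z' = 1 := by
    have := Abelianization.commutator_subset_ker (MonoidHom.transfer (MonoidHom.id S')) hz'comm
    exact this
  rw [hker] at htr
  have hpow' : z' ^ S'.index = 1 := by
    have := congrArg (fun s : S' => (s : ↥N)) htr
    simpa using this.symm
  have hpow : z ^ S'.index = 1 := by
    have := congrArg (fun s : ↥N => (s : G)) hpow'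
    simpa [hz'v] using this
  -- index of `S'` is the relative index, prime to `p`
  have hidx : S'.index = S.relIndex N := by rw [hS']; rfl
  have hcard : Nat.card S * S.relIndex N = Nat.card N := by
    have h1 := Subgroup.card_mul_index (S.subgroupOf N)
    rw [Nat.card_congr (Subgroup.subgroupOfEquivOfLe hSleN).toEquiv] at h1
    exact h1
  have hNpos : 0 < Nat.card N := Nat.card_pos
  obtain ⟨k, hk⟩ : ∃ k, k = (Nat.card N).factorization p := ⟨_, rfl⟩
  have hS2 : Nat.card S = p ^ k := by rw [hk]; exact hS.2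
  have hnd : ¬ p ∣ S.relIndex N := by
    intro hdvd
    have h3 : p ^ (k + 1) ∣ Nat.card N := by
      rw [pow_succ, ← hcard, hS2]
      exact Nat.mul_dvd_mul_left _ hdvd
    rw [hk] at h3
    exact Nat.pow_succ_factorization_not_dvd hNpos.ne' hp h3
  -- `z` is a `p`-element
  have hord1 : orderOf z ∣ S'.index := orderOf_dvd_of_pow_eq_one hpow
  have hord2 : orderOf z ∣ p ^ (Nat.card N).factorization p := by
    have h1 : orderOf (⟨z, hz⟩ : S) ∣ Nat.card S := orderOf_dvd_natCard _
    rw [hS.2] at h1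
    have h2 : orderOf (⟨z, hz⟩ : S) = orderOf z := by
      rw [← Subgroup.orderOf_coe]
    rw [← h2]; exact h1
  have hcop : Nat.Coprime (p ^ (Nat.card N).factorization p) S'.index := by
    rw [hidx]
    exact Nat.Coprime.pow_left _ ((Nat.Prime.coprime_iff_not_dvd hp).2 hnd)
  have : orderOf z = 1 := Nat.eq_one_of_dvd_coprimes hcop hord2 hord1
  exact orderOf_eq_one_iff.1 this

end Cfsg.Agent.Lib.Helper2.BG
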